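import Cfsg.Agent.ChevBlocks.Central
import Cfsg.Prelude.Def_ParabolicCharacters

/-!
# The Steinberg character as the only defect zero character
-/

set_option autoImplicit false

namespace Cfsg.Agent.ChevBlocks

open Cfsg.Lie Cfsg.Agent.ChevGrp Cfsg.Agent.ChevSteinberg

variable {D : ChevalleyDatum} {F : Type*} [Field F] [Fintype F]

/-- A character of degree `q ^ N` has defect zero. -/
theorem defectZero_of_degree (hS : Rules D F) (p : ℕ) [Fact p.Prime] [CharP F p]
    {χ : ↥(D.group F) → ℂ} (hχ : Cfsg.IsIrrCharacter ↥(D.group F) χ)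
    (hdeg : χ 1 = (Fintype.card F : ℂ) ^ (D.nroots / 2)) :
    p ^ (Nat.card ↥(D.group F)).factorization p ∣ Cfsg.charDegree χ := by
  haveI := Fintype.ofFinite ↥(D.group F)
  have h2 := (Cfsg.Agent.Char.irr_charDegree_spec hχ).2
  rw [hdeg, ← Nat.cast_pow, Nat.cast_inj] at h2
  have hle : D.posUnipotent F ≤ D.group F := le_trans le_sup_left (thm_S1043 hS).1
  have hc : Nat.card (grpSys hS).Ubar = Fintype.card F ^ (D.nroots / 2) := by
    rw [← posUnipotent_subgroupOf_eq hS, Nat.card_congr (Subgroup.subgroupOfEquivOfLe hle).toEquiv]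
    exact thm_S1027 hS
  rw [← (sylow_Ubar hS p).2, hc, h2]

end Cfsg.Agent.ChevBlocks
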