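import Cfsg.Agent.ChevBlocks.Main
import Cfsg.Agent.ChevSteinberg.Cells
import Cfsg.Agent.ChevGrp.UnipCount
import Cfsg.Agent.UnipGL.Orbits
import Cfsg.Agent.UnipGL.Characters
import Cfsg.Agent.Char.Virtual

/-!
# The alternating sum over parabolic subgroups is irreducible of degree `q ^ N`

The double cosets of two standard parabolic subgroups correspond to the Weyl elements minimal on
both sides; summing with signs over the right parabolic leaves the longest element.
-/

set_option autoImplicit false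

namespace Cfsg.Agent.ChevBlocks

open Cfsg.Lie Cfsg.Agent.ChevGrp Cfsg.Agent.ChevSteinberg

variable {D : ChevalleyDatum} {F : Type*} [Field F] {len : ℕ → ℕ}

open scoped Classical in
/-- The Weyl elements minimal on both sides. -/
noncomputable def dMin (hR : RootTable D len) (K J : List ℕ) :
    Finset (Fin D.nroots → Fin D.nroots) :=
  (hR.WSet Set.univ).filter fun f => MinL D K (hR.rep Set.univ f) ∧ MinR D J (hR.rep Set.univ f)

theorem sameAct_rep (hR : RootTable D len) (w : List (Fin D.rank)) :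
    SameAct D (hR.rep Set.univ (hR.actF w)) w :=
  hR.mem_actF_iff.1 (hR.rep_spec ((hR.mem_WSet (J := Set.univ)).2 ⟨w, fun _ _ => trivial, rfl⟩)).2.symm

theorem card_doubleCosets (hS : Rules D F) (hR : RootTable D len) (K J : List ℕ) :
    Nat.card (MulAction.orbitRel.Quotient ↥(D.group F)
      ((↥(D.group F) ⧸ PL (grpSys hS) K) × (↥(D.group F) ⧸ PL (grpSys hS) J))) =
      (dMin hR K J).card := by
  classical
  set S := grpSys hS with hSd
  symm
  rw [← Nat.card_eq_finsetCard]
  refine Nat.card_eq_of_bijective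
    (fun f : dMin hR K J => UnipGL.pairClass (PL S K) (PL S J) (S.nW (hR.rep Set.univ f.1))) ⟨?_, ?_⟩
  · rintro ⟨f, hf⟩ ⟨f', hf'⟩ e
    obtain ⟨hfW, hfL, hfR⟩ := Finset.mem_filter.1 hf
    obtain ⟨hfW', hfL', hfR'⟩ := Finset.mem_filter.1 hf'
    obtain ⟨a, ha, b, hb, he⟩ := (UnipGL.pairClass_eq_iff _ _ _ _).1 e
    have hd := drel_of_mem S hS hR (w := hR.rep Set.univ f) hfR' ha
      (by rw [he]; simpa [mul_assoc] using hb)
    have hact := dmin_eq hS hR hd hfL hfR hfL' hfR'
    exact Subtype.ext ((hR.rep_spec hfW).2.trans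
      ((hR.mem_actF_iff.2 hact).trans (hR.rep_spec hfW').2.symm))
  · intro c
    obtain ⟨g, rfl⟩ := UnipGL.pairClass_surjective (PL S K) (PL S J) c
    obtain ⟨b, hb, w, -, q, hq, rfl⟩ :=
      exists_minR_rep S hS hR J (g := g) (by rw [hSd, Gbar_grpSys]; trivial)
    obtain ⟨z, -, hzL, hzR, ⟨u, v, hu, hv, hz⟩, -⟩ := exists_dmin hS hR K J w
    have hf := sameAct_rep hR z
    refine ⟨⟨hR.actF z, Finset.mem_filter.2 ⟨(hR.mem_WSet (J := Set.univ)).2 ⟨z, fun _ _ => trivial, rfl⟩,
      hf.symm.minL hR hzL, hf.symm.minR hR hzR⟩⟩, ?_⟩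
    obtain ⟨k, hk, e⟩ := S.nW_congr hS hR (hf.trans hz)
    rw [UnipGL.pairClass_eq_iff]
    show ∃ a ∈ PL S K, ∃ a' ∈ PL S J, b * S.nW w * q = a * S.nW (hR.rep Set.univ (hR.actF z)) * a'
    rw [e, S.nW_append, S.nW_append]
    refine ⟨b * (S.nW u)⁻¹ * k⁻¹, mul_mem (mul_mem (Bbar_le_PL S K hb) (inv_mem (nW_mem_PL S hu)))
      (inv_mem (Bbar_le_PL S K (S.Hbar_le_Bbar hk))), (S.nW v)⁻¹ * q,
      mul_mem (inv_mem (nW_mem_PL S hv)) hq, ?_⟩
    group

theorem sum_dMin (hS : Rules D F) (hR : RootTable D len) {K : Finset ℕ}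
    (hK : ∀ k ∈ K, k < D.rank) :
    ∑ J ∈ (Finset.range D.rank).powerset, (-1 : ℤ) ^ J.card * ((dMin hR K.toList J.toList).card : ℤ) =
      if K = ∅ then 1 else 0 := by
  classical
  set P := (hR.WSet Set.univ).filter fun f => MinL D K.toList (hR.rep Set.univ f)
  let asc : (Fin D.nroots → Fin D.nroots) → Finset ℕ := fun f =>
    (Finset.range D.rank).filter fun j => D.IsPosRoot (act D (hR.rep Set.univ f) (D.simple j))
  have hasc : ∀ f, ∀ J ∈ (Finset.range D.rank).powerset,
      (MinR D J.toList (hR.rep Set.univ f) ↔ J ⊆ asc f) := by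
    intro f J hJ
    rw [Finset.mem_powerset] at hJ
    constructor
    · intro h j hj
      exact Finset.mem_filter.2 ⟨hJ hj, h ⟨j, Finset.mem_range.1 (hJ hj)⟩ (Finset.mem_toList.2 hj)⟩
    · intro h j hj
      exact (Finset.mem_filter.1 (h (Finset.mem_toList.1 hj))).2
  have h1 : ∀ J ∈ (Finset.range D.rank).powerset,
      (-1 : ℤ) ^ J.card * ((dMin hR K.toList J.toList).card : ℤ) =
        ∑ f ∈ P, if J ⊆ asc f then (-1 : ℤ) ^ J.card else 0 := by
    intro J hJ
    have e : dMin hR K.toList J.toList = P.filter fun f => J ⊆ asc f := by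
      ext f
      simp only [dMin, P, Finset.mem_filter, hasc f J hJ, and_assoc]
    rw [e, ← Finset.sum_filter, Finset.sum_const, nsmul_eq_mul, mul_comm]
  have h2 : ∀ f, (∑ J ∈ (Finset.range D.rank).powerset, if J ⊆ asc f then (-1 : ℤ) ^ J.card else 0) =
      if asc f = ∅ then 1 else 0 := by
    intro f
    rw [← Finset.sum_filter, show (Finset.range D.rank).powerset.filter (fun J => J ⊆ asc f) =
      (asc f).powerset from Finset.ext fun J => by
        simp only [Finset.mem_filter, Finset.mem_powerset]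
        exact ⟨fun h => h.2, fun h => ⟨h.trans (Finset.filter_subset _ _), h⟩⟩,
      Finset.sum_powerset_neg_one_pow_card]
  rw [Finset.sum_congr rfl h1, Finset.sum_comm, Finset.sum_congr rfl fun f _ => h2 f]
  obtain ⟨w₀, -, hw₀, -⟩ := hR.exists_longest
  have hneg : ∀ f, asc f = ∅ → ∀ j : Fin D.rank,
      D.IsNegRoot (act D (hR.rep Set.univ f) (D.simple j)) := fun f hf j =>
    (hR.sign _ (hR.act_lt _ (hR.simple_lt j j.2))).resolve_left fun h =>
      Finset.filter_eq_empty_iff.1 hf (Finset.mem_range.2 j.2) h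
  have hrev : ∀ f, asc f = ∅ → ∀ j : Fin D.rank,
      ¬ D.IsPosRoot (act D (hR.rep Set.univ f).reverse (D.simple j)) := fun f hf j hp => by
    have := all_neg hR (hneg f hf) hp
    rw [hR.act_act_reverse _ (hR.simple_lt j j.2)] at this
    exact hR.not_pos_and_neg (hR.simple_pos j) this
  split_ifs with hKe
  · have hf₀ := sameAct_rep hR w₀
    have hasc₀ : asc (hR.actF w₀) = ∅ := Finset.filter_eq_empty_iff.2 fun j hj h => by
      have hp := hR.simple_lt j (Finset.mem_range.1 hj)
      rw [hf₀ _ hp] at h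
      exact hR.not_pos_and_neg h (hw₀ _ (hR.simple_pos ⟨j, Finset.mem_range.1 hj⟩))
    rw [Finset.sum_eq_single (hR.actF w₀), if_pos hasc₀]
    · intro f hf hne
      rw [if_neg]
      intro hfe
      refine hne ((hR.rep_spec (Finset.mem_filter.1 hf).1).2.trans (hR.mem_actF_iff.2 ?_))
      exact longest_unique hS hR (hneg f hfe) fun j => hw₀ _ (hR.simple_pos j)
    · intro h
      refine absurd (Finset.mem_filter.2 ⟨(hR.mem_WSet (J := Set.univ)).2 ⟨w₀, fun _ _ => trivial, rfl⟩, ?_⟩) h
      intro j hj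
      simp [hKe] at hj
  · refine Finset.sum_eq_zero fun f hf => if_neg fun hfe => ?_
    obtain ⟨k, hk⟩ := Finset.nonempty_of_ne_empty hKe
    exact hrev f hfe ⟨k, hK k hk⟩
      ((Finset.mem_filter.1 hf).2 ⟨k, hK k hk⟩ (Finset.mem_toList.2 hk))

variable [Fintype F]

theorem PJ_range (hS : Rules D F) (hR : RootTable D len) :
    (grpSys hS).PJ ((Finset.range D.rank : Finset ℕ) : Set ℕ) = ⊤ := by
  refine Subgroup.map_injective (D.group F).subtype_injective ?_
  rw [map_PJ hS, PJ_univ_eq hS hR, ← MonoidHom.range_eq_map, Subgroup.range_subtype, group_eq hS]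

theorem steinberg_one (hS : Rules D F) (hR : RootTable D len) :
    D.steinbergCharacter F 1 = (Fintype.card F : ℂ) ^ (D.nroots / 2) := by
  classical
  set S := grpSys hS with hSd
  have h := S.alternating_fix hS hR (J := Finset.range D.rank) (fun k hk => Finset.mem_range.1 hk) 1
    (one_mem _)
  rw [OneMemClass.coe_one, if_pos (one_mem _)] at h
  have hall : posSub D ((Finset.range D.rank : Finset ℕ) : Set ℕ) = posSet D :=
    Set.ext fun r => ⟨fun h => h.1, fun h => ⟨h, h.1, fun i hi hiJ => absurd (Finset.mem_range.2 hi) hiJ⟩⟩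
  have hN : Nat.card (posSet D) = D.nroots / 2 := by
    have := card_posSet (F := F) hS
    omega
  rw [hall, hN, Nat.card_eq_fintype_card] at h
  have hK : ∀ K : Finset ℕ, fixedPointCharacter (D.parabolicIn F K) 1 =
      ((S.cosetFix ((Finset.range D.rank : Finset ℕ) : Set ℕ) (K : Set ℕ) 1 : ℤ) : ℂ) := by
    intro K
    rw [UnipGL.fixedPointCharacter_one, Int.cast_natCast, Nat.cast_inj, Sys.cosetFix,
      MulAction.fixedBy_one_eq_univ, Nat.card_congr (Equiv.Set.univ _), parabolicIn_eq hS hR K,
      show {k | k ∈ K.toList} = (↑K : Set ℕ) from Set.ext fun k => by simp,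
      ← Subgroup.index_eq_card, ← Subgroup.index_eq_card, ← Subgroup.relIndex, PJ_range hS hR,
      Subgroup.relIndex_top_right]
  rw [ChevalleyDatum.steinbergCharacter]
  simp only [hK]
  exact_mod_cast h

theorem steinberg_irr (hS : Rules D F) (hR : RootTable D len) :
    Cfsg.IsIrrCharacter ↥(D.group F) (D.steinbergCharacter F) := by
  classical
  haveI := Fintype.ofFinite ↥(D.group F)
  set S := grpSys hS with hSd
  have hpar : ∀ J : Finset ℕ, D.parabolicIn F J = PL S J.toList := fun J => parabolicIn_eq hS hR J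
  have hgen : Cfsg.IsGeneralizedCharacter ↥(D.group F) (D.steinbergCharacter F) := by
    have e : D.steinbergCharacter F = ∑ J ∈ (Finset.range D.rank).powerset,
        ((-1 : ℤ) ^ J.card) • fixedPointCharacter (D.parabolicIn F J) := by
      funext g
      simp [ChevalleyDatum.steinbergCharacter, Finset.sum_apply, zsmul_eq_mul]
    rw [e]
    exact Char.isGeneralizedCharacter_sum _ fun J _ => Char.isGeneralizedCharacter_zsmul
      (Char.isGeneralizedCharacter_of_isCharacter (UnipGL.isCharacter_fixedPointCharacter _)) _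
  have hpair : ∀ K J : Finset ℕ, ∑ g : ↥(D.group F),
      fixedPointCharacter (D.parabolicIn F K) g * fixedPointCharacter (D.parabolicIn F J) g =
        (Nat.card ↥(D.group F) : ℂ) * ((dMin hR K.toList J.toList).card : ℂ) := fun K J => by
    rw [UnipGL.sum_fixedPointCharacter_mul, hpar, hpar, card_doubleCosets hS hR]
  have hnorm : classInner (D.steinbergCharacter F) (D.steinbergCharacter F) = 1 := by
    have e : ∀ g, D.steinbergCharacter F g * starRingEnd ℂ (D.steinbergCharacter F g) =
        ∑ K ∈ (Finset.range D.rank).powerset, ∑ J ∈ (Finset.range D.rank).powerset,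
          (-1 : ℂ) ^ K.card * (-1 : ℂ) ^ J.card *
            (fixedPointCharacter (D.parabolicIn F K) g * fixedPointCharacter (D.parabolicIn F J) g) := by
      intro g
      simp only [ChevalleyDatum.steinbergCharacter, map_sum, map_mul, map_pow, map_neg, map_one,
        UnipGL.conj_fixedPointCharacter, Finset.sum_mul_sum]
      refine Finset.sum_congr rfl fun K _ => Finset.sum_congr rfl fun J _ => ?_
      ring
    have hsum : ∀ K ∈ (Finset.range D.rank).powerset,
        (∑ g : ↥(D.group F), ∑ J ∈ (Finset.range D.rank).powerset, (-1 : ℂ) ^ K.card * (-1 : ℂ) ^ J.card *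
          (fixedPointCharacter (D.parabolicIn F K) g * fixedPointCharacter (D.parabolicIn F J) g)) =
          if K = ∅ then (Nat.card ↥(D.group F) : ℂ) else 0 := by
      intro K hK
      have h := sum_dMin hS hR (K := K) fun k hk => Finset.mem_range.1 (Finset.mem_powerset.1 hK hk)
      have h' : ∑ J ∈ (Finset.range D.rank).powerset,
          (-1 : ℂ) ^ J.card * ((dMin hR K.toList J.toList).card : ℂ) = if K = ∅ then 1 else 0 := by
        exact_mod_cast h
      rw [Finset.sum_comm, Finset.sum_congr rfl (g := fun J : Finset ℕ => (-1 : ℂ) ^ K.card *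
        (Nat.card ↥(D.group F) : ℂ) * ((-1 : ℂ) ^ J.card * ((dMin hR K.toList J.toList).card : ℂ)))
        (fun J _ => by rw [← Finset.mul_sum, hpair]; ring), ← Finset.mul_sum, h']
      split_ifs with h0
      · subst h0; simp
      · simp
    rw [classInner, Finset.sum_congr rfl fun g _ => e g, Finset.sum_comm, Finset.sum_congr rfl hsum,
      Finset.sum_ite_eq', if_pos (Finset.empty_mem_powerset _),
      inv_mul_cancel₀ (Nat.cast_ne_zero.2 Nat.card_pos.ne')]
  rcases Char.generalized_norm_one hgen hnorm with h | h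
  · exact h
  · exfalso
    obtain ⟨n, hn, hn'⟩ := Char.irr_one_pos h
    rw [Pi.neg_apply, steinberg_one hS hR] at hn'
    have h2 : ((Fintype.card F ^ (D.nroots / 2) + n : ℕ) : ℂ) = 0 := by push_cast; rw [← hn']; ring
    rw [Nat.cast_eq_zero] at h2
    omega

end Cfsg.Agent.ChevBlocks
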